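import Cfsg.Agent.H97.QPSpec
import Cfsg.Agent.H8.TransferEval

/-! Job NW of the tower QP: the Sylow subgroup is not `D₈ ≀ 2`. -/

set_option autoImplicit false

namespace H83.NW

open Cfsg Subgroup H98 H97.NG H97.QP H32.NP
open scoped commutatorElement

universe u

variable {G : Type*} [Group G]

theorem cjc {g x : G} (h : g * x = x * g) : g * x * g⁻¹ = x := by rw [h, mul_inv_cancel_right]

theorem cjm (g a b : G) : g * (a * b) * g⁻¹ = g * a * g⁻¹ * (g * b * g⁻¹) := by group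

/-- two four-groups generating a dihedral group of order 8 -/
structure Sd (B W W' : Subgroup G) (x x' z : G) : Prop where
  bc : BC B W x
  bc' : BC B W' x'
  zc : Zc B W z
  zc' : Zc B W' z
  nc : ¬ W ≤ centralizer (W' : Set G)

namespace Sd

variable {B W W' U U' : Subgroup G} {x x' z y y' r w w' t e : G}

section

variable (h : Sd B W W' x x' z)
include h

theorem symm : Sd B W' W x' x z := ⟨h.bc', h.bc, h.zc', h.zc, fun c => h.nc (le_centralizer_iff.1 c)⟩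

theorem zz : z * z = 1 := f_sq h.bc.four h.zc.mem

theorem le : W ⊔ W' ≤ B := sup_le h.bc.le h.bc'.le

theorem xm (hw : w ∈ W) : x * w * x⁻¹ ∈ W := (mem_normalizer_iff.1 h.bc.nx w).1 hw

theorem a_mem : x * z * x⁻¹ ∈ W := h.xm h.zc.mem

theorem a_ne : x * z * x⁻¹ ≠ 1 := by simpa [mul_inv_eq_one] using h.zc.ne

theorem a_ne' : x * z * x⁻¹ ≠ z := fun e => x_move h.bc h.zc.mem h.zc.ne (mul_inv_eq_iff_eq_mul.1 e)

theorem cases (hw : w ∈ W) : w = 1 ∨ w = x * z * x⁻¹ ∨ w = z ∨ w = x * z * x⁻¹ * z :=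
  f_cases h.bc.four h.a_mem h.zc.mem h.a_ne h.zc.ne h.a_ne' hw

theorem mv (hw : w ∈ W) (w1 : w ≠ 1) (wz : w ≠ z) (hw' : w' ∈ W') (v1 : w' ≠ 1) (vz : w' ≠ z) :
    w' * w * w'⁻¹ = w * z := by
  refine f_move h.bc.four (h.bc.nB (h.bc'.le hw')) h.zc.mem h.zc.ne (h.zc.comm _ (h.bc'.le hw'))
    (fun c => h.symm.nc fun v hv => ?_) hw w1 wz
  have cz : z ∈ centralizer (W : Set G) := fun v hv => h.zc.comm v (h.bc.le hv)
  rcases f_cases h.bc'.four hw' h.zc'.mem v1 h.zc.ne vz hv with e | e | e | e <;> rw [e]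
  exacts [one_mem _, c, cz, mul_mem c cz]

theorem mem (he : e ∈ W ⊔ W') : ∃ w ∈ W, ∃ w' ∈ W', e = w * w' :=
  (mem_sup_left_norm (h.bc.le.trans h.bc'.nB)).1 he

theorem conj (ht : t ∈ B) (he : e ∈ W ⊔ W') : t * e * t⁻¹ = e ∨ t * e * t⁻¹ = e * z := by
  obtain ⟨w, hw, w', hw', rfl⟩ := h.mem he
  have c := h.zc.comm _ (h.bc'.le hw')
  rcases f_conj h.bc.four (h.bc.nB ht) h.zc.mem h.zc.ne (h.zc.comm t ht) hw with e1 | e1 <;>
    rcases f_conj h.bc'.four (h.bc'.nB ht) h.zc'.mem h.zc.ne (h.zc.comm t ht) hw' with e2 | e2 <;>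
    rw [cjm, e1, e2]
  · exact .inl rfl
  · exact .inr (mul_assoc _ _ _).symm
  · exact .inr (by rw [mul_assoc, ← c, mul_assoc])
  · exact .inl (by rw [c, mul_assoc, ← mul_assoc z, h.zz, one_mul])

theorem sq (he : e ∈ W ⊔ W') (ee : e * e = 1) : e ∈ W ∨ e ∈ W' := by
  obtain ⟨w, hw, w', hw', rfl⟩ := h.mem he
  by_contra! k
  refine h.zc.ne (mul_eq_left.1 ((h.mv hw ?_ ?_ hw' ?_ ?_).symm.trans ?_))
  · rintro rfl; exact k.2 (by simpa using hw')
  · rintro rfl; exact k.2 (mul_mem h.zc'.mem hw')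
  · rintro rfl; exact k.1 (by simpa using hw)
  · rintro rfl; exact k.1 (mul_mem hw h.zc.mem)
  · rw [f_inv h.bc'.four hw', ← f_inv h.bc.four hw, eq_inv_iff_mul_eq_one, f_inv h.bc.four hw]
    calc _ = w⁻¹ * (w * w' * (w * w')) * w := by group
      _ = 1 := by rw [ee]; group

theorem cen (he : e ∈ W ⊔ W') (c : ∀ v ∈ W ⊔ W', e * v = v * e) : e = 1 ∨ e = z := by
  obtain ⟨w, hw, w', hw', rfl⟩ := h.mem he
  have k1 : w' = 1 ∨ w' = z := by
    by_contra! k
    have := c _ (mem_sup_left h.a_mem)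
    rw [← mul_assoc _ w, f_comm h.bc.four h.a_mem hw, mul_assoc w, mul_assoc w, mul_right_inj] at this
    exact h.zc.ne (mul_eq_left.1 ((h.mv h.a_mem h.a_ne h.a_ne' hw' k.1 k.2).symm.trans (cjc this)))
  have k2 : w = 1 ∨ w = z := by
    by_contra! k
    have := c _ (mem_sup_right h.symm.a_mem)
    rw [mul_assoc, f_comm h.bc'.four hw' h.symm.a_mem, ← mul_assoc w, ← mul_assoc _ w, mul_left_inj] at this
    exact h.zc.ne (mul_eq_left.1
      ((h.symm.mv h.symm.a_mem h.symm.a_ne h.symm.a_ne' hw k.1 k.2).symm.trans (cjc this)))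
  rcases k1 with rfl | rfl <;> rcases k2 with rfl | rfl <;> simp [h.zz]

theorem rot : x * (x * z * x⁻¹) * x⁻¹ = x * z * x⁻¹ * z := by
  rcases h.cases (h.xm h.a_mem) with e | e | e | e
  · exact absurd (by simpa [mul_inv_eq_one] using e) h.a_ne
  · exact absurd (mul_inv_eq_iff_eq_mul.1 e) (x_move h.bc h.a_mem h.a_ne)
  · refine absurd (mul_inv_eq_iff_eq_mul.1 ?_) (x_move h.bc (mul_mem h.a_mem h.zc.mem)
      (f_mul_ne_one h.bc.four h.a_mem h.a_ne'))
    rw [cjm, e, f_comm h.bc.four h.zc.mem h.a_mem]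
  · exact e

theorem rot' : x * (x * z * x⁻¹ * z) * x⁻¹ = z := by
  rw [cjm, h.rot, mul_assoc, ← f_comm h.bc.four h.a_mem h.zc.mem, ← mul_assoc,
    f_sq h.bc.four h.a_mem, one_mul]

theorem cube (hw : w ∈ W) : x ^ 3 * w = w * x ^ 3 := by
  have : x * (x * (x * z * x⁻¹) * x⁻¹) * x⁻¹ = z := by rw [h.rot, h.rot']
  have h1 : Commute (x ^ 3) z := by
    rw [commute_iff_eq, ← mul_inv_eq_iff_eq_mul]
    refine Eq.trans ?_ this
    rw [pow_three]; group
  have h2 : Commute (x ^ 3) (x * z * x⁻¹) :=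
    ((Commute.pow_self x 3).mul_right h1).mul_right (Commute.pow_self x 3).inv_right
  rcases h.cases hw with e | e | e | e <;> rw [e]
  exacts [Commute.one_right _, h2, h1, h2.mul_right h1]

theorem into (hw : w ∈ W) : ∃ k, (∀ v, x * v = v * x → k * v = v * k) ∧
    (k * w * k⁻¹ = 1 ∨ k * w * k⁻¹ = z) := by
  rcases h.cases hw with e | e | e | e <;> rw [e]
  · exact ⟨1, by simp, by simp⟩
  · exact ⟨x⁻¹, fun v hv => (Commute.inv_left hv : Commute _ _), .inr (by group)⟩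
  · exact ⟨1, by simp, by simp⟩
  · exact ⟨x, fun v hv => hv, .inr h.rot'⟩

theorem comm : ⁅x * z * x⁻¹, x' * z * x'⁻¹⁆ = z := by
  rw [commutatorElement_def, h.symm.mv h.symm.a_mem h.symm.a_ne h.symm.a_ne' h.a_mem h.a_ne h.a_ne',
    cjc (h.zc.comm _ (h.bc'.le h.symm.a_mem))]

end

theorem cross (h : Sd B W W' x x' z) (k : Sd B U U' y y' r) (n : z ≠ r) (he : e ∈ W ⊔ W')
    (ht : t ∈ U ⊔ U') : e * t = t * e := by
  rcases k.conj (h.le he) ht with e1 | e1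
  · exact mul_inv_eq_iff_eq_mul.1 e1
  rcases h.conj (k.le ht) he with e2 | e2
  · exact (mul_inv_eq_iff_eq_mul.1 e2).symm
  refine absurd (mul_left_cancel (a := e * t) ?_) n
  calc e * t * z = e * z * t := by rw [mul_assoc, h.zc.comm _ (k.le ht), mul_assoc]
    _ = t * e := by rw [← e2]; group
    _ = t * r * e * r := by
      rw [mul_assoc t, ← k.zc.comm _ (h.le he), mul_assoc, mul_assoc, k.zz, mul_one]
    _ = _ := by rw [← e1]; group

theorem disj (h : Sd B W W' x x' z) (k : Sd B U U' y y' r) (n : z ≠ r) (he : e ∈ W ⊔ W')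
    (he' : e ∈ U ⊔ U') : e = 1 := by
  refine (h.cen he fun v hv => (h.cross k n hv he').symm).elim id fun e1 => ?_
  exact (k.cen he' fun v hv => h.cross k n he hv).resolve_right fun e2 => n (e1.symm.trans e2)

theorem uniq (h : Sd B W W' x x' z) (k : Sd B U U' y y' r) (n : z ≠ r) {a b c d : G} (ha : a ∈ W ⊔ W')
    (hb : b ∈ U ⊔ U') (hc : c ∈ W ⊔ W') (hd : d ∈ U ⊔ U') (e : a * b = c * d) : b = d := by
  have : c⁻¹ * a = d * b⁻¹ := by rw [inv_mul_eq_iff_eq_mul, ← mul_assoc, ← e, mul_inv_cancel_right]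
  exact (mul_inv_eq_one.1 (h.disj k n (this ▸ mul_mem (inv_mem hc) ha) (mul_mem hd (inv_mem hb)))).symm

end Sd

variable {S P P' W W' : Subgroup G} {x x' z s t : G}

theorem sd (h : NS S P P' W W' ⊥ ⊥ x x' z s) : Sd (BT S) W W' x x' z :=
  ⟨h.px.bc, h.px'.bc, h.px.zc, h.px'.zc, h.nc⟩

theorem sd2 (h : NS S P P' W W' ⊥ ⊥ x x' z s) :
    Sd (BT S) (cj s W) (cj s W') (s * x * s⁻¹) (s * x' * s⁻¹) (s * z * s⁻¹) :=
  ⟨h.px.bc_cj h.px.mem, h.px'.bc_cj h.px.mem, h.px.zc_cj (nB h.px.mem), h.px'.zc_cj (nB h.px.mem),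
    fun c => h.nc (by rwa [← cj_centralizer, cj_le_cj_iff] at c)⟩

theorem mem_B (h : NS S P P' W W' ⊥ ⊥ x x' z s) : t ∈ BT S ↔ t ∈ S ∧ t * z = z * t := by
  rw [h.B, mem_inf, mem_centralizer_singleton_iff]

section

variable (h : NS S P P' W W' ⊥ ⊥ x x' z s) (n : z ≠ s * z * s⁻¹)
include h n

theorem ne_W : cj s W ≠ W := fun e => n (cjc ((h.px.fix h.px.mem).1 e)).symm

theorem dec (ht : t ∈ BT S) : ∃ a ∈ W ⊔ W', ∃ b ∈ cj s W ⊔ cj s W', t = a * b := by
  have := h.h.dec (h.B ▸ ht)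
  rw [h.h.core, sup_bot_eq, sup_sup_sup_comm] at this
  exact (mem_sup_left_norm fun a ha => centralizer_le_normalizer _ fun b hb =>
    ((sd h).cross (sd2 h) n ha hb).symm).1 this

omit n in
theorem two (ht : t ∈ S) : t ∈ BT S ∨ s⁻¹ * t ∈ BT S :=
  (h.px.two t ht).imp (fun e => (mem_B h).2 ⟨ht, (h.px.fix ht).1 e⟩) fun e =>
    have m := mul_mem (inv_mem h.px.mem) ht
    (mem_B h).2 ⟨m, (h.px.fix m).1 (by rw [← cj_cj, e, cj_inv_cj])⟩

theorem s_not : s ∉ BT S := fun e => n (cjc ((mem_B h).1 e).2).symm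

theorem ss_mem : s * s ∈ BT S := (two h (mul_mem h.px.mem h.px.mem)).resolve_right fun e =>
  s_not h n (by simpa using e)

theorem back {b : G} (hb : b ∈ cj s W ⊔ cj s W') : s * b * s⁻¹ ∈ W ⊔ W' := by
  rw [← cj_sup, mem_cj] at hb
  have m := ss_mem h n
  have := (mem_normalizer_iff.1 (le_normalizer_sup h.px.bc.nB h.px'.bc.nB m) _).1 hb
  simpa [mul_assoc] using this

theorem fix_s {a b : G} (ha : a ∈ W ⊔ W') (hb : b ∈ cj s W ⊔ cj s W') (c : s * (a * b) = a * b * s) :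
    b = s * a * s⁻¹ := by
  have m : s * a * s⁻¹ ∈ cj s W ⊔ cj s W' := cj_sup s W W' ▸ conj_mem_cj ha
  refine (sd h).uniq (sd2 h) n ha hb (back h n hb) m ?_
  rw [(sd h).cross (sd2 h) n (back h n hb) m, ← cjm, cjc c]

theorem exists_invol : ∃ s', s' * s' = 1 ∧ NS S P P' W W' ⊥ ⊥ x x' z s' ∧ z ≠ s' * z * s'⁻¹ := by
  obtain ⟨a, ha, b, hb, e⟩ := dec h n (ss_mem h n)
  have e1 := fix_s h n ha hb (by rw [← e, mul_assoc])
  have m := inv_mem ((sd h).le ha)
  have e2 : cj (s * a⁻¹) W = cj s W := by rw [← cj_cj, cj_eq_self (h.px.bc.nB m)]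
  have e3 : cj (s * a⁻¹) W' = cj s W' := by rw [← cj_cj, cj_eq_self (h.px'.bc.nB m)]
  have m' := mul_mem h.px.mem (bm_le S m)
  obtain ⟨⟨p1, p2, p3, p4, p5, p6, p7, -, p9, p10, p11, p12⟩, ⟨q1, q2, q3, q4, q5, q6, q7, -, q9, q10, q11, q12⟩,
    nc, ⟨k1, k2, k3, k4, k5, k6, k7⟩, ⟨l1, l2, l3, l4, l5, l6, l7⟩, i, hB⟩ := id h
  rw [← e2] at p9 p11 k1 k2 l7
  rw [← e3] at q9 q11 l1 l2 k7
  refine ⟨s * a⁻¹, ?_, ⟨⟨p1, p2, p3, p4, p5, p6, p7, m', p9, p10, p11, p12⟩,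
    ⟨q1, q2, q3, q4, q5, q6, q7, m', q9, q10, q11, q12⟩, nc, ⟨k1, k2, k3, k4, k5, k6, k7⟩,
    ⟨l1, l2, l3, l4, l5, l6, l7⟩, i, hB⟩, ?_⟩
  · calc _ = (s * a * s⁻¹)⁻¹ * (s * s) * a⁻¹ := by group
      _ = 1 := by rw [← e1, e, (sd h).cross (sd2 h) n ha hb]; group
  · rwa [mul_inv_rev, mul_assoc s, mul_assoc s, ← mul_assoc _ a⁻¹⁻¹, cjc (p7.comm _ m), ← mul_assoc]

theorem x_cen {w : G} (hw : w ∈ cj s W) : x * w = w * x := ((h.px.ind s h.px.mem (ne_W h n)).2.2 w hw).symm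

theorem x2_cen {w : G} (hw : w ∈ W) : s * x * s⁻¹ * w = w * (s * x * s⁻¹) := by
  have := x_cen h n (w := s⁻¹ * w * s) (mem_cj.2 (by
    have := (mem_normalizer_iff.1 (h.px.bc.nB (inv_mem (ss_mem h n))) _).1 hw
    simpa [mul_assoc] using this))
  calc _ = s * (x * (s⁻¹ * w * s)) * s⁻¹ := by group
    _ = _ := by rw [this]; group

omit n in
theorem mem_V {c : G} (hc : c ∈ P) (h1 : ∀ w ∈ W, c * w = w * c) (h2 : ∀ w ∈ cj s W, c * w = w * c) :
    ∃ a ∈ W, ∃ b ∈ cj s W, c = a * b := by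
  have := h.px.chr
  rw [H98.CharP, h.h.core, sup_bot_eq] at this
  exact (mem_sup_left_norm ((sd h).bc.le.trans (sd2 h).bc.nB)).1 (this ⟨hc, fun w hw =>
    mem_centralizer_singleton_iff.1 ((sup_le (fun w hw => mem_centralizer_singleton_iff.2 (h1 w hw).symm)
      fun w hw => mem_centralizer_singleton_iff.2 (h2 w hw).symm : W ⊔ cj s W ≤ centralizer {c}) hw)⟩)

theorem x3 : x ^ 3 = 1 := by
  obtain ⟨a, ha, b, hb, e⟩ := mem_V h (pow_mem h.px.x_mem 3) (fun w => (sd h).cube)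
    fun w hw => (Commute.pow_left (x_cen h n hw) 3 : Commute _ _)
  have : (x ^ 3) ^ 2 = 1 := by
    rw [e, (Commute.mul_pow ((sd h).cross (sd2 h) n (mem_sup_left ha) (mem_sup_left hb))), pow_two,
      pow_two, f_sq (sd h).bc.four ha, f_sq (sd2 h).bc.four hb, one_mul]
  rw [← pow_mul, ← orderOf_dvd_iff_pow_eq_one] at this
  exact orderOf_dvd_iff_pow_eq_one.1 ((Nat.coprime_two_right.2 h.px.odd).dvd_of_dvd_mul_right this)

theorem g_u : x * (s * x * s⁻¹) * (z * (s * z * s⁻¹)) * (x * (s * x * s⁻¹))⁻¹ =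
    x * z * x⁻¹ * (s * (x * z * x⁻¹) * s⁻¹) := by
  calc _ = x * (s * x * s⁻¹ * z * (s * x * s⁻¹)⁻¹) * x⁻¹ * (x * (s * (x * z * x⁻¹) * s⁻¹) * x⁻¹) := by group
    _ = _ := by rw [cjc (x2_cen h n h.px.zc.mem), cjc (x_cen h n (conj_mem_cj (sd h).a_mem))]

theorem exists_y (ss : s * s = 1) : ∃ y, y * s = s * y ∧
    y * (z * (s * z * s⁻¹)) * y⁻¹ = x * z * x⁻¹ * (s * (x * z * x⁻¹) * s⁻¹) := by
  have m2 : s * x * s⁻¹ ∈ P := mul_mem (mul_mem (h.px.le h.px.mem) h.px.x_mem) (inv_mem (h.px.le h.px.mem))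
  have k : ∀ {a b w : G}, b * w = w * b → b * (a * w * a⁻¹) = a * w * a⁻¹ * b →
      Commute ((a * b)⁻¹ * (b * a)) w ∧ Commute ((b * a)⁻¹ * (a * b)) w := fun {a b w} h1 h2 => by
    have : (a * b)⁻¹ * (b * a) * w * ((a * b)⁻¹ * (b * a))⁻¹ = w := by
      calc _ = b⁻¹ * (a⁻¹ * (b * (a * w * a⁻¹) * b⁻¹) * a) * b := by group
        _ = b⁻¹ * w * b := by rw [cjc h2]; group
        _ = w := by rw [mul_assoc, ← h1, inv_mul_cancel_left]
    have c : Commute ((a * b)⁻¹ * (b * a)) w := mul_inv_eq_iff_eq_mul.1 this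
    exact ⟨c, by simpa using c.inv_left⟩
  obtain ⟨a, ha, b, hb, e⟩ := mem_V h (c := (x * (s * x * s⁻¹))⁻¹ * (s * x * s⁻¹ * x))
    (mul_mem (inv_mem (mul_mem h.px.x_mem m2)) (mul_mem m2 h.px.x_mem))
    (fun w hw => (k (x2_cen h n hw) (x2_cen h n ((sd h).xm hw))).1)
    fun w hw => (k (x_cen h n hw) (x_cen h n ((sd2 h).xm hw))).2
  have sx : s * (s * x * s⁻¹) * s⁻¹ = x := by
    calc _ = s * s * x * (s * s)⁻¹ := by group
      _ = x := by rw [ss]; group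
  have aa := f_sq (sd h).bc.four ha
  have bb := f_sq (sd2 h).bc.four hb
  have ab := (sd h).cross (sd2 h) n (mem_sup_left ha) (mem_sup_left hb)
  have e1 := fix_s h n (mem_sup_left ha) (mem_sup_left hb) (mul_inv_eq_iff_eq_mul.1 (by
    have : s * (a * b) * s⁻¹ = (a * b)⁻¹ := by
      rw [← e, cjm, ← conj_inv, cjm, cjm s (s * x * s⁻¹), sx]; group
    rw [this, ab, mul_inv_rev, inv_eq_of_mul_eq_one_right aa, inv_eq_of_mul_eq_one_right bb, ab]))
  refine ⟨x * (s * x * s⁻¹) * a, (mul_inv_eq_iff_eq_mul.1 ?_).symm, ?_⟩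
  · rw [cjm, cjm s x, sx, ← e1, ← mul_inv_cancel_left (x * (s * x * s⁻¹)) (s * x * s⁻¹ * x), e,
      mul_assoc, mul_assoc a, bb, mul_one]
  · have c : Commute a (z * (s * z * s⁻¹)) := Commute.mul_right (h.px.zc.comm _ (h.px.bc.le ha))
      ((sd2 h).zc.comm _ (h.px.bc.le ha))
    rw [← g_u h n, mul_inv_rev _ a, mul_assoc _ a, ← mul_assoc _ a⁻¹, mul_assoc _ (a * _), cjc c]

theorem mixed {a b : G} (ha : a ∈ W) (hb : b ∈ cj s W') : IsConj (a * b) b ∨ IsConj (a * b) (z * b) := by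
  have h1 := sd h
  have h2 := sd2 h
  have bB := h2.bc'.le hb
  obtain ⟨c, hc, d, hd, e⟩ := mem_V h (c := x * b * x⁻¹ * b⁻¹)
    (mul_mem (mul_mem (mul_mem h.px.x_mem (h.px.le (bm_le S bB))) (inv_mem h.px.x_mem))
      (inv_mem (h.px.le (bm_le S bB)))) (fun w hw => by
      have k : ∀ w ∈ W, Commute w b := fun w hw => h1.cross h2 n (mem_sup_left hw) (mem_sup_right hb)
      have := k _ ((mem_normalizer_iff.1 (inv_mem h1.bc.nx) w).1 hw)
      calc _ = x * b * x⁻¹ * (b⁻¹ * w) := by group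
        _ = x * (b * (x⁻¹ * w * x⁻¹⁻¹)) * x⁻¹ * b⁻¹ := by rw [← (k w hw).inv_right.eq]; group
        _ = _ := by rw [← this.eq]; group) fun w hw => by
      have : Commute x (b⁻¹ * w * b⁻¹⁻¹) := x_cen h n ((mem_normalizer_iff.1 (inv_mem (h2.bc.nB bB)) w).1 hw)
      calc _ = x * b * (x⁻¹ * (b⁻¹ * w * b⁻¹⁻¹)) * b⁻¹ := by group
        _ = x * w * (b * x⁻¹ * b⁻¹) := by rw [this.inv_left.eq]; group
        _ = _ := by rw [x_cen h n hw]; group
  have e1 : x * b * x⁻¹ = c * d * b := by rw [← e]; group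
  have d1 : d = 1 := by
    have xd := cjc (x_cen h n hd)
    have cd : ∀ w ∈ W, d * w = w * d := fun w hw =>
      (h1.cross h2 n (mem_sup_left hw) (mem_sup_left hd)).symm
    have : x * (x * (x * b * x⁻¹) * x⁻¹) * x⁻¹ = b := by
      calc _ = x ^ 3 * b * (x ^ 3)⁻¹ := by rw [pow_three]; group
        _ = b := by rw [x3 h n]; group
    have k : ∀ w, x * (w * d * b) * x⁻¹ = x * w * x⁻¹ * d * (c * d * b) := fun w => by
      rw [cjm x (w * d), cjm x w, xd, e1]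
    have dc := cjc (cd c hc)
    rw [inv_eq_of_mul_eq_one_right (f_sq h2.bc.four hd)] at dc
    have k2 : ∀ w, x * (w * d * b) * x⁻¹ = x * w * x⁻¹ * c * b := fun w => by
      rw [k]; nth_rewrite 2 [← dc]; simp only [mul_assoc]
    rw [e1, k2, cjm _ _ b, e1, ← mul_assoc _ _ b, mul_eq_right, ← mul_assoc _ c, ← mul_one (1 : G)] at this
    exact h1.uniq h2 n (mem_sup_left (mul_mem (h1.xm (mul_mem (h1.xm hc) hc)) hc))
      (mem_sup_left hd) (one_mem _) (one_mem _) this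
  rw [d1, mul_one] at e1
  have T : ∀ w, IsConj (x * w * x⁻¹ * c * b) (w * b) := fun w =>
    (isConj_iff.2 ⟨x, by rw [cjm, e1, mul_assoc _ c]⟩ : IsConj (w * b) _).symm
  have yb := cjc (h1.cross h2 n (mem_sup_right h1.symm.a_mem) (mem_sup_right hb))
  have sw : IsConj (x * z * x⁻¹ * b) (x * z * x⁻¹ * z * b) := isConj_iff.2 ⟨x' * z * x'⁻¹, by
    rw [cjm, yb, h1.mv h1.a_mem h1.a_ne h1.a_ne' h1.symm.a_mem h1.symm.a_ne h1.symm.a_ne']⟩
  have k : IsConj (x * z * x⁻¹ * b) b ∨ IsConj (x * z * x⁻¹ * b) (z * b) := by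
    have t1 := T 1
    have t2 := T z
    rw [mul_one, mul_inv_cancel, one_mul, one_mul] at t1
    rcases h1.cases hc with rfl | rfl | rfl | rfl
    exacts [.inr (by rwa [mul_one] at t2), .inl t1, .inr (sw.trans t2), .inl (sw.trans t1)]
  rcases h1.cases ha with rfl | rfl | rfl | rfl
  exacts [.inl (by rw [one_mul]), k, .inr (IsConj.refl _), k.imp sw.symm.trans sw.symm.trans]

theorem half {a b : G} (ha : a ∈ W) (hb : b ∈ cj s W ∨ b ∈ cj s W') :
    a * b = 1 ∨ IsConj (a * b) z ∨ IsConj (a * b) (z * (s * z * s⁻¹)) := by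
  have k : ∀ {p c d : G}, IsConj p (c * d) → c = 1 ∨ c = z → d = 1 ∨ d = s * z * s⁻¹ →
      p = 1 ∨ IsConj p z ∨ IsConj p (z * (s * z * s⁻¹)) := by
    rintro p _ _ e (rfl | rfl) (rfl | rfl)
    exacts [.inl (isConj_one_left.1 (by rwa [mul_one] at e)),
      .inr (.inl (e.trans (isConj_iff.2 ⟨s⁻¹, by group⟩))), .inr (.inl (by rwa [mul_one] at e)), .inr (.inr e)]
  have k2 : ∀ {W W' P P' : Subgroup G} {x x' c : G}, NS S P P' W W' ⊥ ⊥ x x' z s → b ∈ cj s W →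
      IsConj (a * b) (c * b) → c = 1 ∨ c = z →
      a * b = 1 ∨ IsConj (a * b) z ∨ IsConj (a * b) (z * (s * z * s⁻¹)) := fun {W W' P P' x x' c} h hb e hc => by
    obtain ⟨g, g1, g2⟩ := (sd2 h).into hb
    refine k (e.trans (isConj_iff.2 ⟨g, (cjm _ _ _).trans (congrArg (· * _) (cjc (g1 c ?_)))⟩)) hc g2
    rcases hc with rfl | rfl
    exacts [by simp, x2_cen h n h.px.zc.mem]
  rcases hb with hb | hb
  · obtain ⟨g, g1, g2⟩ := (sd h).into ha
    exact k2 h hb (isConj_iff.2 ⟨g, by rw [cjm, cjc (g1 b (x_cen h n hb))]⟩) g2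
  · exact (mixed h n ha hb).elim (fun e => k2 h.symm hb (by rwa [one_mul]) (.inl rfl))
      fun e => k2 h.symm hb e (.inr rfl)

theorem invol (ht : t ∈ BT S) (tt : t * t = 1) : t = 1 ∨ IsConj t z ∨ IsConj t (z * (s * z * s⁻¹)) := by
  obtain ⟨a, ha, b, hb, rfl⟩ := dec h n ht
  have c : Commute a b := (sd h).cross (sd2 h) n ha hb
  rw [← pow_two, c.mul_pow, pow_two, pow_two, ← mul_one (1 : G)] at tt
  have bb := (sd h).uniq (sd2 h) n (mul_mem ha ha) (mul_mem hb hb) (one_mem _) (one_mem _) tt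
  rw [bb, mul_one, mul_one] at tt
  exact ((sd h).sq ha tt).elim (fun e => half h n e ((sd2 h).sq hb bb))
    fun e => half h.symm n e ((sd2 h).sq hb bb).symm

theorem main [Finite G] (hS : PH S) (ss : s * s = 1) : False := by
  have h1 := sd h
  have h2 := sd2 h
  have zc := h2.zc.comm _ (h1.bc.le h1.zc.mem)
  have sz : s * (s * z * s⁻¹) * s⁻¹ = z := by
    calc _ = s * s * z * (s * s)⁻¹ := by group
      _ = z := by rw [ss]; group
  have u1 : z * (s * z * s⁻¹) ≠ 1 := fun e => n (mul_left_cancel (a := z) (h1.zz.trans e.symm))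
  have su : s * (z * (s * z * s⁻¹)) = z * (s * z * s⁻¹) * s := mul_inv_eq_iff_eq_mul.1 (by rw [cjm, sz, zc])
  have Bu : ∀ t ∈ BT S, Commute t (z * (s * z * s⁻¹)) := fun t ht =>
    Commute.mul_right (h1.zc.comm t ht) (h2.zc.comm t ht)
  have uu : (z * (s * z * s⁻¹)) ^ 2 = 1 := by
    rw [Commute.mul_pow zc, pow_two, pow_two, h1.zz, h2.zz, one_mul]
  have sol := hS.sol (centralizer {z * (s * z * s⁻¹)}) (fun t ht => mem_centralizer_singleton_iff.2
    ((two h ht).elim (Bu t) fun e => by simpa using (Commute.mul_left su (Bu _ e)).eq)) fun e => by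
      have := le_pCoreOf (H := centralizer {z * (s * z * s⁻¹)}) (H12.ea_isPGroup (H12.ea_zpowers uu))
        (zpowers_le.2 (mem_centralizer_singleton_iff.2 rfl))
        (by rw [← H12.centralizer_zpowers]; exact centralizer_le_normalizer _)
      exact u1 (mem_bot.1 (e ▸ this (mem_zpowers _)))
  have LP : ∀ {d r y y' : G}, IsConj d (z * (s * z * s⁻¹)) → r * d = d * r → y * d = d * y →
      y' * d = d * y' → r = ⁅y * r * y⁻¹, y' * r * y'⁻¹⁆ → r = 1 := fun {d r y y'} hd a b c e => by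
    obtain ⟨g, hg⟩ := isConj_iff.1 hd
    have k : ∀ {t}, t * d = d * t → g * t * g⁻¹ ∈ centralizer {z * (s * z * s⁻¹)} := fun e =>
      mem_centralizer_singleton_iff.2 (by rw [← hg, ← cjm, e, cjm])
    have := lemmaP' sol (k a) (k b) (k c) (by
      nth_rewrite 1 [e]; simp only [commutatorElement_def]; group)
    simpa [mul_inv_eq_one] using this
  have na : ¬ IsConj z (z * (s * z * s⁻¹)) := fun e => h2.zc.ne
    (LP e zc.symm (x2_cen h n h1.zc.mem) (x2_cen h.symm n h1.zc'.mem) h2.comm.symm)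
  have c1 := h1.cross h2 n (mem_sup_left h1.a_mem) (mem_sup_right (conj_mem_cj h1.symm.a_mem))
  have pp : ⁅x * z * x⁻¹ * (s * (x * z * x⁻¹) * s⁻¹), x' * z * x'⁻¹ * (s * (x' * z * x'⁻¹) * s⁻¹)⁆ =
      z * (s * z * s⁻¹) := by
    have k : ∀ {a b c d : G}, Commute a c → Commute a d → Commute b c → Commute b d →
        ⁅a * c, b * d⁆ = ⁅a, b⁆ * ⁅c, d⁆ := fun {a b c d} h1 h2 h3 h4 => by
      have k1 : Commute (b * a) (c * d * (d * c)⁻¹) :=
        ((h3.mul_left h1).mul_right (h4.mul_left h2)).mul_right ((h4.mul_left h2).mul_right (h3.mul_left h1)).inv_right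
      calc _ = a * c * (b * d) * (b * d * (a * c))⁻¹ := by rw [commutatorElement_def]; group
        _ = a * b * (c * d * (d * c)⁻¹ * (b * a)⁻¹) := by
          rw [h3.symm.mul_mul_mul_comm, h2.symm.mul_mul_mul_comm]; group
        _ = _ := by rw [← k1.inv_left.eq, commutatorElement_def, commutatorElement_def]; group
    rw [k (h1.cross h2 n (mem_sup_left h1.a_mem) (mem_sup_left (conj_mem_cj h1.a_mem))) c1
      (h1.cross h2 n (mem_sup_right h1.symm.a_mem) (mem_sup_left (conj_mem_cj h1.a_mem)))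
      (h1.cross h2 n (mem_sup_right h1.symm.a_mem) (mem_sup_right (conj_mem_cj h1.symm.a_mem))),
      ← conjugate_commutatorElement, h1.comm]
  have nb : ¬ IsConj s (z * (s * z * s⁻¹)) := fun e => by
    obtain ⟨y, y1, y2⟩ := exists_y h n ss
    obtain ⟨y', y3, y4⟩ := exists_y h.symm n ss
    exact u1 (LP e su.symm y1 y3 (by rw [y2, y4, pp]))
  have i2 : (BT S).relIndex S = 2 := relIndex_eq_two_iff_exists_notMem_and'.2 ⟨s⁻¹, inv_mem h.px.mem,
    fun e => s_not h n (inv_mem_iff.1 e), fun b hb => (two h hb).symm⟩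
  obtain ⟨g₀, hg₀⟩ : ∃ g, g * s * g⁻¹ = z := by
    by_contra! k
    obtain ⟨N, -, hN, -⟩ := H8.thompson_transfer S (BT S) (by
      have := hS.syl.not_dvd_relIndex
      rw [relIndex_top_right] at this
      exact Nat.not_even_iff_odd.1 fun e => this e.two_dvd) i2 s (by rw [pow_two, ss]) fun g hg => by
        rcases invol h n hg (by rw [← cjm, ss]; group) with e | e | e
        · exact s_not h n (by rw [show s = 1 by simpa [mul_inv_eq_one] using e]; exact one_mem _)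
        · obtain ⟨c, hc⟩ := isConj_iff.1 e
          exact k (c * g) (by rw [← hc]; group)
        · exact nb ((isConj_iff.2 ⟨g, rfl⟩).trans e)
    exact hS.index_ne_two N hN
  have syl : IsSyl 2 (BT S) (centralizer {z}) := by
    refine ⟨h.B ▸ inf_le_right, h1.bc.pB, fun Q hQ k1 k2 => ?_⟩
    by_contra k
    have e1 := ((BT S).subgroupOf S).card_mul_index
    rw [Nat.card_congr (subgroupOfEquivOfLe (bm_le S)).toEquiv, show ((BT S).subgroupOf S).index = 2 from i2] at e1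
    obtain ⟨m, hm⟩ := card_dvd_of_le k1
    obtain ⟨g, -, hg⟩ := (hS.syl.of_card_ge hQ le_top (by
      rw [← e1, hm]
      refine Nat.mul_le_mul_left _ ?_
      by_contra! c
      have := Nat.card_pos (α := Q)
      interval_cases m
      · omega
      · exact k (eq_of_le_of_card_ge k1 (by omega)).symm)).exists_cj_eq hS.syl
    have c : ∀ t ∈ S, g * z * g⁻¹ * t = t * (g * z * g⁻¹) := fun t ht => by
      have := mem_centralizer_singleton_iff.1 (k2 (mem_cj.1 (hg ▸ ht)))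
      calc _ = g * (z * (g⁻¹ * t * g)) * g⁻¹ := by group
        _ = _ := by rw [← this]; group
    have zS := bm_le S (h1.bc.le h1.zc.mem)
    obtain ⟨a, ha, b, hb, e⟩ := dec h n ((mem_B h).2 ⟨hg ▸ conj_mem_cj (k1 (h1.bc.le h1.zc.mem)), c z zS⟩)
    have e2 := fix_s h n ha hb (e ▸ (c s h.px.mem).symm)
    rcases h1.cen ha fun v hv => mul_right_cancel (b := b) (by
      rw [mul_assoc, h1.cross h2 n hv hb, ← mul_assoc, ← e, c v (bm_le S (h1.le hv)), e, mul_assoc]) with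
      rfl | rfl
    · exact h1.zc.ne (by simpa [e2, mul_inv_eq_one] using e)
    · exact na (isConj_iff.2 ⟨g, e2 ▸ e⟩)
  obtain ⟨c, hc, hle⟩ := syl.exists_cj_le (isPGroup_cj g₀ (hS.syl.isPGroup.to_inf_left (K := centralizer {s})))
    fun t ht => mem_centralizer_singleton_iff.2 (by
      have := mem_centralizer_singleton_iff.1 (mem_cj.1 ht).2
      calc _ = g₀ * (g₀⁻¹ * t * g₀ * s) * g₀⁻¹ := by rw [← hg₀]; group
        _ = _ := by rw [this, ← hg₀]; group)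
  have hg : c * g₀ * s * (c * g₀)⁻¹ = z := by
    rw [← cjc (mem_centralizer_singleton_iff.1 hc), ← hg₀]; group
  rw [cj_cj] at hle
  generalize c * g₀ = g at hg hle
  have mp : ∀ a ∈ W ⊔ W', g * (a * (s * a * s⁻¹)) * g⁻¹ ∈ BT S := fun a ha => by
    have m : s * a * s⁻¹ ∈ cj s W ⊔ cj s W' := cj_sup s W W' ▸ conj_mem_cj ha
    refine hle (conj_mem_cj ⟨bm_le S (mul_mem (h1.le ha) (h2.le m)),
      mem_centralizer_singleton_iff.2 (mul_inv_eq_iff_eq_mul.1 ?_).symm⟩)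
    rw [cjm, h1.cross h2 n ha m]
    calc _ = s * a * s⁻¹ * (s * s * a * (s * s)⁻¹) := by group
      _ = _ := by rw [ss]; group
  obtain ⟨a, ha, b, hb, e1⟩ := dec h n (mp _ (mem_sup_left h1.a_mem))
  have m := mp _ (mem_sup_right h1.symm.a_mem)
  have pu := (isConj_iff.2 ⟨_, g_u h n⟩).symm
  have aa := f_sq h1.bc.four h1.a_mem
  generalize x * z * x⁻¹ = p at e1 pp pu aa
  generalize x' * z * x'⁻¹ * (s * (x' * z * x'⁻¹) * s⁻¹) = p' at m pp
  have e3 : g * (z * (s * z * s⁻¹)) * g⁻¹ = a * b * (g * p' * g⁻¹ * (a * b) * (g * p' * g⁻¹)⁻¹)⁻¹ := by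
    rw [← pp, ← e1, commutatorElement_def]; group
  have cu : IsConj (g * (z * (s * z * s⁻¹)) * g⁻¹) (z * (s * z * s⁻¹)) := (isConj_iff.2 ⟨g, rfl⟩).symm
  obtain ⟨a', ha', b', hb', e2⟩ := dec h n m
  rcases h1.conj (h1.le ha') ha with k1 | k1
  · have k3 : b' * a * b'⁻¹ = a := cjc (h1.cross h2 n ha hb').symm
    rw [e3, e2, h1.cross h2 n ha' hb', show b' * a' * (a * b) * (b' * a')⁻¹ =
      b' * (a' * a * a'⁻¹ * (a' * b * a'⁻¹)) * b'⁻¹ by group, k1, cjc (h1.cross h2 n ha' hb), cjm, k3] at cu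
    rcases h2.conj (h2.le hb') hb with k2 | k2 <;> rw [k2] at cu
    · exact u1 (Eq.symm (by simpa using cu))
    · refine na (IsConj.trans (isConj_iff.2 ⟨a * b * s, ?_⟩) cu)
      nth_rewrite 1 [← inv_eq_of_mul_eq_one_right h1.zz]; group
  · refine nb (IsConj.trans ?_ pu)
    refine (isConj_iff.2 ⟨g * p, ?_⟩).trans ((isConj_iff.2 ⟨a', rfl⟩).symm.trans
      (isConj_iff.2 ⟨g, e1⟩).symm)
    rw [cjm, k1, cjc (h1.cross h2 n ha' hb), mul_assoc a, ← h1.zc.comm _ (h2.le hb), ← mul_assoc, ← e1, ← hg,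
      mul_inv_rev, inv_eq_of_mul_eq_one_right aa]
    group

end

theorem jobNW : JobNW.{u} := fun G _ _ S P P' W W' x x' z s hS h => by
  by_contra c
  obtain ⟨s', ss, h', n⟩ := exists_invol h fun e => c (mul_inv_eq_iff_eq_mul.1 e.symm)
  exact main h' n hS ss

end H83.NW
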